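import Mathlib

/-!
# Groups of prime power degree containing a full cycle: the combinatorial core (Burnside, Schur)
-/

set_option autoImplicit false
set_option linter.unusedSectionVars false
set_option linter.unusedVariables false

namespace Cfsg.Agent.Lib.CycleDeg

open scoped Pointwise

variable {p m : ℕ} [Fact p.Prime]

/-- The cyclic group. -/
abbrev H (p m : ℕ) : Type := ZMod (p ^ m)

instance instNeZeroPow : NeZero (p ^ m) := ⟨pow_ne_zero _ (Fact.out : p.Prime).ne_zero⟩

noncomputable instance instFintypeH : Fintype (H p m) := ZMod.fintype _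

/-- The axioms of the system of stabiliser classes. -/
structure Sys (rel : H p m → H p m → Prop) : Prop where
  refl : ∀ i, rel i i
  symm : ∀ i j, rel i j → rel j i
  trans : ∀ i j k, rel i j → rel j k → rel i k
  hσ : ∀ k k', rel k k' → ∃ σ : Equiv.Perm (H p m), σ k = k' ∧ σ 0 = 0 ∧ ∀ i l, rel (l - i) (σ l - σ i)

/-- Saturated sets. -/
def Sat (rel : H p m → H p m → Prop) (T : Set (H p m)) : Prop := ∀ i j, rel i j → i ∈ T → j ∈ T

variable {rel : H p m → H p m → Prop}

lemma Sys.zero (hs : Sys rel) {k : H p m} (h : rel 0 k) : k = 0 := by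
  obtain ⟨σ, h1, h2, -⟩ := hs.hσ _ _ h
  rw [← h1, h2]

lemma Sys.neg (hs : Sys rel) {i j : H p m} (h : rel i j) : rel (-i) (-j) := by
  obtain ⟨σ, h1, h2, h3⟩ := hs.hσ _ _ h
  have := h3 i 0
  rw [h1, h2, zero_sub, zero_sub] at this
  exact this

lemma Sys.perm_rel (hs : Sys rel) {σ : Equiv.Perm (H p m)} (h2 : σ 0 = 0)
    (h3 : ∀ i l, rel (l - i) (σ l - σ i)) (i : H p m) : rel i (σ i) := by
  have := h3 0 i
  rwa [h2, sub_zero, sub_zero] at this

/-- Counting representations. -/
noncomputable def cnt (S S' : Set (H p m)) (k : H p m) : ℕ := by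
  classical
  exact (Finset.univ.filter (fun u => u ∈ S ∧ k - u ∈ S')).card

lemma cnt_def {S S' : Set (H p m)} {k : H p m} [DecidablePred fun u => u ∈ S ∧ k - u ∈ S'] :
    cnt S S' k = (Finset.univ.filter (fun u => u ∈ S ∧ k - u ∈ S')).card := by
  unfold cnt
  congr!

lemma cnt_eq (hs : Sys rel) {S S' : Set (H p m)} (hS : Sat rel S) (hS' : Sat rel S') {k k' : H p m}
    (h : rel k k') : cnt S S' k = cnt S S' k' := by
  classical
  obtain ⟨σ, h1, h2, h3⟩ := hs.hσ _ _ h
  unfold cnt
  apply Finset.card_equiv σ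
  intro u
  have h4 := hs.perm_rel h2 h3 u
  have h5 := h3 u k
  rw [h1] at h5
  simp only [Finset.mem_filter, Finset.mem_univ, true_and]
  constructor
  · rintro ⟨h6, h7⟩
    exact ⟨hS _ _ h4 h6, hS' _ _ h5 h7⟩
  · rintro ⟨h6, h7⟩
    exact ⟨hS _ _ (hs.symm _ _ h4) h6, hS' _ _ (hs.symm _ _ h5) h7⟩

lemma mem_of_cnt_pos {S S' : Set (H p m)} {k : H p m} (h : 0 < cnt S S' k) : ∃ u ∈ S, k - u ∈ S' := by
  classical
  unfold cnt at h
  obtain ⟨u, hu⟩ := Finset.card_pos.mp h
  simp only [Finset.mem_filter, Finset.mem_univ, true_and] at hu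
  exact ⟨u, hu.1, hu.2⟩

lemma cnt_pos {S S' : Set (H p m)} {k u : H p m} (h1 : u ∈ S) (h2 : k - u ∈ S') : 0 < cnt S S' k := by
  classical
  unfold cnt
  apply Finset.card_pos.mpr
  exact ⟨u, by simp [h1, h2]⟩

/-- The sum of two saturated sets is saturated. -/
lemma sat_add (hs : Sys rel) {S S' : Set (H p m)} (hS : Sat rel S) (hS' : Sat rel S') :
    Sat rel {k | ∃ u ∈ S, k - u ∈ S'} := by
  intro i j h hi
  obtain ⟨u, h1, h2⟩ := hi
  have h3 := cnt_pos h1 h2
  rw [cnt_eq hs hS hS' h] at h3
  exact mem_of_cnt_pos h3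

/-- The subgroup generated by a saturated set is saturated. -/
lemma sat_closure (hs : Sys rel) {U : Set (H p m)} (hU : Sat rel U) :
    Sat rel (AddSubgroup.closure U : Set (H p m)) := by
  classical
  set D := AddSubgroup.closure U with hD
  let 𝓕 : Set (Finset (H p m)) := {T | (0 : H p m) ∈ T ∧ Sat rel (T : Set (H p m)) ∧ ∀ x ∈ T, x ∈ D}
  have hne : ((Set.toFinite 𝓕).toFinset).Nonempty := by
    refine ⟨{0}, ?_⟩
    rw [Set.Finite.mem_toFinset]
    refine ⟨by simp, ?_, by simp [D.zero_mem]⟩
    intro i j h hi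
    simp only [Finset.coe_singleton, Set.mem_singleton_iff] at hi ⊢
    subst hi
    exact hs.zero h
  obtain ⟨T, hT, hmax⟩ := Finset.exists_max_image _ (fun T : Finset (H p m) => T.card) hne
  rw [Set.Finite.mem_toFinset] at hT
  obtain ⟨hT0, hTs, hTD⟩ := hT
  have hU0 : Sat rel (U ∪ {0}) := by
    intro i j h hi
    rcases hi with hi | hi
    · exact Or.inl (hU _ _ h hi)
    · have hi' : i = 0 := hi
      subst hi'
      exact Or.inr (hs.zero h)
  let T' : Finset (H p m) := Finset.univ.filter (fun k => ∃ u ∈ (T : Set (H p m)), k - u ∈ U ∪ {0})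
  have hT'mem : ∀ k, k ∈ T' ↔ ∃ u ∈ (T : Set (H p m)), k - u ∈ U ∪ {0} := by
    intro k
    simp [T']
  have hle : T ⊆ T' := by
    intro x hx
    rw [hT'mem]
    exact ⟨x, hx, by simp⟩
  have hT'F : T' ∈ 𝓕 := by
    refine ⟨(hT'mem 0).mpr ⟨0, hT0, by simp⟩, ?_, ?_⟩
    · intro i j h hi
      have hi' : i ∈ T' := hi
      rw [hT'mem] at hi'
      have := sat_add hs hTs hU0 i j h hi'
      show j ∈ T'
      rw [hT'mem]
      exact this
    · intro x hx
      rw [hT'mem] at hx
      obtain ⟨u, hu, h2⟩ := hx
      have h3 : u ∈ D := hTD u hu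
      have h4 : x - u ∈ D := by
        rcases h2 with h2 | h2
        · exact AddSubgroup.subset_closure h2
        · have : x - u = 0 := h2
          rw [this]
          exact D.zero_mem
      have := D.add_mem h4 h3
      simpa using this
  have hEq : T = T' := by
    apply Finset.eq_of_subset_of_card_le hle
    exact hmax T' ((Set.Finite.mem_toFinset _).mpr hT'F)
  have hadd : ∀ a ∈ U, ∀ x ∈ T, a + x ∈ T := by
    intro a ha x hx
    rw [hEq, hT'mem]
    exact ⟨x, hx, by simp [ha]⟩
  have hfin : ∀ d : H p m, (∀ x ∈ T, d + x ∈ T) → ∀ x ∈ T, -d + x ∈ T := by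
    intro d hd x hx
    have hinj : Function.Injective (fun y : H p m => d + y) := add_right_injective d
    have himg : T.image (fun y => d + y) = T := by
      apply Finset.eq_of_subset_of_card_le
      · intro y hy
        obtain ⟨z, hz, rfl⟩ := Finset.mem_image.mp hy
        exact hd z hz
      · rw [Finset.card_image_of_injective _ hinj]
    rw [← himg] at hx
    obtain ⟨z, hz, rfl⟩ := Finset.mem_image.mp hx
    simpa using hz
  have hallD : ∀ d ∈ D, ∀ x ∈ T, d + x ∈ T := by
    intro d hd
    induction hd using AddSubgroup.closure_induction with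
    | mem a ha => exact hadd a ha
    | zero => simp
    | add a b _ _ ha hb =>
      intro x hx
      rw [add_assoc]
      exact ha _ (hb x hx)
    | neg a _ ha => exact hfin a ha
  have hDT : ∀ d ∈ D, d ∈ T := by
    intro d hd
    have := hallD d hd 0 hT0
    simpa using this
  intro i j h hi
  exact hTD j (hTs i j h (hDT i hi))

/-! ### The subgroup of order `p` -/

/-- The subgroup of order `p`. -/
def W (p m : ℕ) : AddSubgroup (H p m) := AddSubgroup.zmultiples ((p ^ (m - 1) : ℕ) : H p m)

lemma natCast_pow_eq_zero : ((p ^ m : ℕ) : H p m) = 0 := ZMod.natCast_self _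

lemma mem_W_iff (hm : 1 ≤ m) {x : H p m} : x ∈ W p m ↔ (p : H p m) * x = 0 := by
  have hp := (Fact.out : p.Prime)
  constructor
  · intro h
    obtain ⟨j, rfl⟩ := AddSubgroup.mem_zmultiples_iff.mp h
    rw [zsmul_eq_mul, mul_left_comm, ← Nat.cast_mul, ← pow_succ', Nat.sub_add_cancel hm,
      natCast_pow_eq_zero, mul_zero]
  · intro h
    have h1 : ((p * x.val : ℕ) : H p m) = 0 := by
      rw [Nat.cast_mul, ZMod.natCast_zmod_val]
      exact h
    rw [ZMod.natCast_eq_zero_iff] at h1
    have h2 : p ^ (m - 1) ∣ x.val := by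
      have h3 : p ^ m = p * p ^ (m - 1) := by
        rw [← pow_succ', Nat.sub_add_cancel hm]
      have h1' : p * p ^ (m - 1) ∣ p * x.val := by
        rw [← h3]
        exact h1
      exact Nat.dvd_of_mul_dvd_mul_left hp.pos h1'
    obtain ⟨j, hj⟩ := h2
    apply AddSubgroup.mem_zmultiples_iff.mpr
    refine ⟨(j : ℤ), ?_⟩
    rw [natCast_zsmul, nsmul_eq_mul, ← Nat.cast_mul, mul_comm, ← hj, ZMod.natCast_zmod_val]

lemma card_W (hm : 1 ≤ m) : Nat.card (W p m) = p := by
  have hp := (Fact.out : p.Prime)
  unfold W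
  rw [Nat.card_zmultiples, ZMod.addOrderOf_coe _ (pow_ne_zero _ hp.ne_zero)]
  have h3 : p ^ m = p * p ^ (m - 1) := by
    rw [← pow_succ', Nat.sub_add_cancel hm]
  have h4 : (p ^ m).gcd (p ^ (m - 1)) = p ^ (m - 1) := by
    apply Nat.gcd_eq_right
    exact ⟨p, by rw [h3, mul_comm]⟩
  rw [h4, h3]
  exact Nat.mul_div_cancel _ (pow_pos hp.pos _)

/-- Every non-zero element of the subgroup of order `p` generates it. -/
lemma W_gen (hm : 1 ≤ m) {v w : H p m} (hv : v ∈ W p m) (hv0 : v ≠ 0) (hw : w ∈ W p m) :
    ∃ j : ℕ, w = j • v := by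
  have hp := (Fact.out : p.Prime)
  have hle : AddSubgroup.zmultiples v ≤ W p m := (AddSubgroup.zmultiples_le).mpr hv
  have h1 : Nat.card (AddSubgroup.zmultiples v) ∣ p := by
    have := AddSubgroup.card_dvd_of_le hle
    rwa [card_W (p := p) (m := m) hm] at this
  have h2 : Nat.card (AddSubgroup.zmultiples v) ≠ 1 := by
    rw [Nat.card_zmultiples]
    intro h3
    exact hv0 (AddMonoid.addOrderOf_eq_one_iff.mp h3)
  have h3 : Nat.card (AddSubgroup.zmultiples v) = p := (hp.eq_one_or_self_of_dvd _ h1).resolve_left h2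
  have h4 : AddSubgroup.zmultiples v = W p m := by
    apply AddSubgroup.eq_of_le_of_card_ge hle
    rw [card_W (p := p) (m := m) hm, h3]
  rw [← h4] at hw
  rw [mem_zmultiples_iff_mem_range_addOrderOf] at hw
  obtain ⟨j, -, hj⟩ := Finset.mem_image.mp hw
  exact ⟨j, hj.symm⟩

/-! ### Frobenius -/

section Frob

open AddMonoidAlgebra

/-- The coefficients of a product. -/
lemma coeff_mul_eq (x y : AddMonoidAlgebra (ZMod p) (H p m)) (k : H p m) :
    (x * y).coeff k = ∑ i, x.coeff i * y.coeff (k - i) := by
  classical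
  rw [AddMonoidAlgebra.coeff_mul, Finsupp.sum_fintype _ _ (by simp)]
  apply Finset.sum_congr rfl
  intro i _
  rw [Finsupp.sum_fintype _ _ (by simp), Finset.sum_eq_single (k - i)]
  · simp
  · intro j _ hj
    rw [if_neg]
    intro h
    apply hj
    rw [← h]
    ring
  · simp

/-- Functions constant on the classes. -/
def Good (rel : H p m → H p m → Prop) (x : AddMonoidAlgebra (ZMod p) (H p m)) : Prop :=
  ∀ i j, rel i j → x.coeff i = x.coeff j

lemma good_mul (hs : Sys rel) {x y : AddMonoidAlgebra (ZMod p) (H p m)} (hx : Good rel x) (hy : Good rel y) :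
    Good rel (x * y) := by
  intro k k' h
  obtain ⟨σ, h1, h2, h3⟩ := hs.hσ _ _ h
  rw [coeff_mul_eq, coeff_mul_eq, ← Equiv.sum_comp σ (fun i => x.coeff i * y.coeff (k' - i))]
  apply Finset.sum_congr rfl
  intro i _
  have h4 := h3 i k
  rw [h1] at h4
  rw [hx _ _ (hs.perm_rel h2 h3 i), hy _ _ h4]

lemma good_one (hs : Sys rel) : Good rel (1 : AddMonoidAlgebra (ZMod p) (H p m)) := by
  classical
  intro i j h
  have h0 : i = 0 ↔ j = 0 := by
    constructor
    · rintro rfl
      exact hs.zero h
    · rintro rfl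
      exact hs.zero (hs.symm _ _ h)
  rw [AddMonoidAlgebra.one_def, AddMonoidAlgebra.coeff_single, Finsupp.single_apply, Finsupp.single_apply]
  by_cases hi : i = 0
  · rw [if_pos hi.symm, if_pos (h0.mp hi).symm]
  · rw [if_neg (fun h => hi h.symm), if_neg (fun h => hi (h0.mpr h.symm))]

lemma good_pow (hs : Sys rel) {x : AddMonoidAlgebra (ZMod p) (H p m)} (hx : Good rel x) (n : ℕ) :
    Good rel (x ^ n) := by
  induction n with
  | zero => simpa using good_one hs
  | succ n ih =>
    rw [pow_succ]
    exact good_mul hs ih hx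

/-- The Frobenius computation. -/
lemma frob_count (hs : Sys rel) (S : Set (H p m)) (hS : Sat rel S) :
    ∃ y : AddMonoidAlgebra (ZMod p) (H p m), Good rel y ∧ ∀ k, y.coeff k = (by
      classical
      exact (((Finset.univ.filter (fun u => u ∈ S ∧ p • u = k)).card : ℕ) : ZMod p)) := by
  classical
  have hp := (Fact.out : p.Prime)
  let T : Finset (H p m) := Finset.univ.filter (fun u => u ∈ S)
  let x : AddMonoidAlgebra (ZMod p) (H p m) := ∑ u ∈ T, AddMonoidAlgebra.single u 1
  have hcoeff : ∀ k, x.coeff k = if k ∈ S then 1 else 0 := by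
    intro k
    simp only [x, AddMonoidAlgebra.coeff_sum, Finsupp.finsetSum_apply, AddMonoidAlgebra.coeff_single,
      Finsupp.single_apply]
    rw [Finset.sum_ite_eq' T k]
    simp [T]
  have hgx : Good rel x := by
    intro i j h
    rw [hcoeff, hcoeff]
    by_cases hi : i ∈ S
    · rw [if_pos hi, if_pos (hS _ _ h hi)]
    · rw [if_neg hi, if_neg (fun hj => hi (hS _ _ (hs.symm _ _ h) hj))]
  haveI : CharP (AddMonoidAlgebra (ZMod p) (H p m)) p :=
    charP_of_injective_algebraMap (algebraMap (ZMod p) (AddMonoidAlgebra (ZMod p) (H p m))).injective p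
  refine ⟨x ^ p, good_pow hs hgx p, ?_⟩
  intro k
  have h1 : x ^ p = ∑ u ∈ T, AddMonoidAlgebra.single (p • u) 1 := by
    simp only [x]
    rw [sum_pow_char p]
    apply Finset.sum_congr rfl
    intro u _
    rw [AddMonoidAlgebra.single_pow, one_pow]
  rw [h1]
  simp only [AddMonoidAlgebra.coeff_sum, Finsupp.finsetSum_apply, AddMonoidAlgebra.coeff_single,
    Finsupp.single_apply]
  rw [← Finset.sum_filter, Finset.sum_const, nsmul_eq_mul, mul_one]
  congr 2
  ext u
  simp [T]

end Frob

/-- Multiples of `p` do not contain `1`. -/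
lemma one_not_mul_p (hm : 1 ≤ m) (x : H p m) : (p : H p m) * x ≠ 1 := by
  have hp := (Fact.out : p.Prime)
  intro h
  have h1 : IsUnit ((p : ℕ) : ZMod (p ^ m)) := IsUnit.of_mul_eq_one _ h
  rw [ZMod.isUnit_iff_coprime] at h1
  have h2 : p ∣ p ^ m := dvd_pow_self p (by omega)
  have := Nat.Coprime.eq_one_of_dvd h1 h2
  exact hp.one_lt.ne' this

/-- The absence of non-trivial saturated subgroups. -/
def NoSub (rel : H p m → H p m → Prop) : Prop :=
  ∀ D : AddSubgroup (H p m), Sat rel (D : Set (H p m)) → D = ⊥ ∨ D = ⊤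

lemma nsmul_eq_mul_p (u : H p m) : p • u = (p : H p m) * u := nsmul_eq_mul _ _

/-- Saturated sets are invariant under the subgroup of order `p`, away from that subgroup. -/
lemma sat_inv (hs : Sys rel) (hm : 1 ≤ m) (hn : NoSub rel) {S : Set (H p m)} (hS : Sat rel S)
    {i w : H p m} (hi : i ∈ S) (hiW : i ∉ W p m) (hw : w ∈ W p m) : i + w ∈ S := by
  classical
  have hp := (Fact.out : p.Prime)
  obtain ⟨y, hy, hyc⟩ := frob_count hs S hS
  -- the saturated set of non-zero values away from zero
  let B : Set (H p m) := {k | k ≠ 0 ∧ y.coeff k ≠ 0}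
  have hB : Sat rel B := by
    rintro a b h ⟨h1, h2⟩
    refine ⟨fun h3 => h1 ?_, fun h3 => h2 ((hy _ _ h).trans h3)⟩
    subst h3
    exact hs.zero (hs.symm _ _ h)
  have hBsub : ∀ k ∈ B, ∃ u : H p m, k = (p : H p m) * u := by
    rintro k ⟨h1, h2⟩
    rw [hyc] at h2
    by_contra hcon
    push Not at hcon
    apply h2
    have : (Finset.univ.filter (fun u => u ∈ S ∧ p • u = k)) = ∅ := by
      apply Finset.filter_eq_empty_iff.mpr
      rintro u - ⟨-, h3⟩
      exact hcon u (by rw [← h3, nsmul_eq_mul_p])
    rw [this]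
    simp
  have hBempty : B = ∅ := by
    by_contra hne
    obtain ⟨k, hk⟩ := Set.nonempty_iff_ne_empty.mpr hne
    rcases hn _ (sat_closure hs hB) with h1 | h1
    · have : k ∈ AddSubgroup.closure B := AddSubgroup.subset_closure hk
      rw [h1, AddSubgroup.mem_bot] at this
      exact hk.1 this
    · have hle : AddSubgroup.closure B ≤ (AddMonoidHom.mulLeft (p : H p m)).range := by
        rw [AddSubgroup.closure_le]
        intro a ha
        obtain ⟨u, hu⟩ := hBsub a ha
        exact ⟨u, hu.symm⟩
      rw [h1] at hle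
      obtain ⟨x, hx⟩ := hle (AddSubgroup.mem_top (1 : H p m))
      exact one_not_mul_p hm x hx
  -- the fibre through `i`
  have hk0 : p • i ≠ 0 := by
    rw [nsmul_eq_mul_p]
    intro h
    exact hiW ((mem_W_iff hm).mpr h)
  have hcount : (((Finset.univ.filter (fun u => u ∈ S ∧ p • u = p • i)).card : ℕ) : ZMod p) = 0 := by
    by_contra hcon
    have : p • i ∈ B := ⟨hk0, by rw [hyc]; exact hcon⟩
    rw [hBempty] at this
    exact this
  rw [ZMod.natCast_eq_zero_iff] at hcount
  let F : Finset (H p m) := Finset.univ.filter (fun u => p • u = p • i)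
  have hFmem : ∀ u, u ∈ F ↔ u - i ∈ W p m := by
    intro u
    simp only [F, Finset.mem_filter, Finset.mem_univ, true_and]
    rw [mem_W_iff hm, nsmul_eq_mul_p, nsmul_eq_mul_p, mul_sub, sub_eq_zero]
  have hFcard : F.card = p := by
    refine Eq.trans ?_ (card_W (p := p) (m := m) hm)
    rw [Nat.card_eq_fintype_card, ← Finset.card_univ]
    apply Finset.card_bij (fun u hu => (⟨u - i, (hFmem u).mp hu⟩ : W p m))
    · intro _ _
      exact Finset.mem_univ _
    · intro a _ b _ h
      have := congrArg Subtype.val h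
      simpa using this
    · intro b _
      refine ⟨b + i, (hFmem _).mpr (by simpa using b.2), ?_⟩
      apply Subtype.ext
      simp
  let F' : Finset (H p m) := Finset.univ.filter (fun u => u ∈ S ∧ p • u = p • i)
  have hsub : F' ⊆ F := by
    intro u hu
    simp only [F', Finset.mem_filter, Finset.mem_univ, true_and] at hu
    simp only [F, Finset.mem_filter, Finset.mem_univ, true_and]
    exact hu.2
  have hpos : 0 < F'.card := Finset.card_pos.mpr ⟨i, by simp [F', hi]⟩
  have hle : F'.card ≤ p := (Finset.card_le_card hsub).trans_eq hFcard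
  have hcard : F'.card = p := le_antisymm hle (Nat.le_of_dvd hpos hcount)
  have hEq : F' = F := Finset.eq_of_subset_of_card_le hsub (by rw [hFcard, hcard])
  have hmem : i + w ∈ F := (hFmem _).mpr (by simpa using hw)
  rw [← hEq] at hmem
  simp only [F', Finset.mem_filter, Finset.mem_univ, true_and] at hmem
  exact hmem.1

/-! ### The heart of the argument -/

/-- The class of an element. -/
def cls (rel : H p m → H p m → Prop) (z : H p m) : Set (H p m) := {j | rel z j}

lemma sat_cls (hs : Sys rel) (z : H p m) : Sat rel (cls rel z) := fun i j h hi => hs.trans _ _ _ hi h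

/-- Let `z ≠ 0` lie in the subgroup of order `p`, and suppose its class leaves it. Then the class of
every non-zero `v` of the subgroup is the negative of the class of `z`. -/
lemma key_neg (hs : Sys rel) (hm : 1 ≤ m) (hn : NoSub rel) {z k v : H p m} (hz : z ∈ W p m) (hz0 : z ≠ 0)
    (hk : k ∉ W p m) (hzk : rel z k) (hv : v ∈ W p m) (hv0 : v ≠ 0) : rel z (-v) := by
  classical
  by_contra hcon
  have hS := sat_cls hs z
  have hS' := sat_cls hs v
  -- no representation of zero
  have hno : ∀ u, u ∈ cls rel z → -u ∈ cls rel v → False := by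
    intro u h1 h2
    apply hcon
    have h3 : rel v (-u) := h2
    have h4 := hs.neg h3
    rw [neg_neg] at h4
    exact hs.trans _ _ _ h1 (hs.symm _ _ h4)
  let V : Finset (H p m) := Finset.univ.filter (fun u => u ∈ W p m ∧ rel v u)
  -- for every element of the class in the subgroup
  have hstep : ∀ y, y ∈ W p m → rel z y → ∀ v' ∈ V, rel z (y - v') ∧ y - v' ∈ W p m := by
    intro y hyW hzy v' hv'
    have hv'1 : v' ∈ W p m ∧ rel v v' := by simpa [V] using hv'
    have hky : cnt (cls rel z) (cls rel v) k = cnt (cls rel z) (cls rel v) y :=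
      cnt_eq hs hS hS' (hs.trans _ _ _ (hs.symm _ _ hzk) hzy)
    have hge : V.card ≤ cnt (cls rel z) (cls rel v) k := by
      unfold cnt
      apply Finset.card_le_card_of_injOn (fun a => k - a)
      · intro a ha
        have ha' : a ∈ W p m ∧ rel v a := by simpa [V] using ha
        simp only [Finset.coe_filter, Finset.mem_univ, true_and, Set.mem_ofPred_eq]
        refine ⟨?_, ?_⟩
        · have := sat_inv hs hm hn hS (show k ∈ cls rel z from hzk) hk ((W p m).neg_mem ha'.1)
          rwa [← sub_eq_add_neg] at this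
        · have : k - (k - a) = a := by ring
          rw [this]
          exact ha'.2
      · intro a _ b _ h
        exact sub_right_injective h
    have hsub : (Finset.univ.filter (fun u => u ∈ cls rel z ∧ y - u ∈ cls rel v)) ⊆
        V.image (fun a => y - a) := by
      intro u hu
      have hu' : u ∈ cls rel z ∧ y - u ∈ cls rel v := by simpa using hu
      have huW : u ∈ W p m := by
        by_contra huW
        have h1 : y - u ∉ W p m := by
          intro h2
          apply huW
          have := (W p m).sub_mem hyW h2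
          simpa using this
        have h2 := sat_inv hs hm hn hS' hu'.2 h1 ((W p m).neg_mem hyW)
        have h3 : y - u + -y = -u := by ring
        rw [h3] at h2
        exact hno u hu'.1 h2
      apply Finset.mem_image.mpr
      refine ⟨y - u, ?_, by ring⟩
      simp only [V, Finset.mem_filter, Finset.mem_univ, true_and]
      exact ⟨(W p m).sub_mem hyW huW, hu'.2⟩
    have hcardle : cnt (cls rel z) (cls rel v) y ≤ V.card := by
      unfold cnt
      calc _ ≤ (V.image (fun a => y - a)).card := Finset.card_le_card hsub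
        _ ≤ V.card := Finset.card_image_le
    have hinj : Function.Injective (fun a : H p m => y - a) := sub_right_injective
    have heq : (Finset.univ.filter (fun u => u ∈ cls rel z ∧ y - u ∈ cls rel v)) =
        V.image (fun a => y - a) := by
      apply Finset.eq_of_subset_of_card_le hsub
      rw [Finset.card_image_of_injective _ hinj]
      have h5 : V.card ≤ cnt (cls rel z) (cls rel v) y := by
        rw [← hky]
        exact hge
      exact h5
    have hmem : y - v' ∈ V.image (fun a => y - a) := Finset.mem_image_of_mem _ hv'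
    rw [← heq] at hmem
    have h6 : y - v' ∈ cls rel z ∧ y - (y - v') ∈ cls rel v := by simpa using hmem
    exact ⟨h6.1, (W p m).sub_mem hyW hv'1.1⟩
  -- iterate
  have hvV : v ∈ V := by simp [V, hv, hs.refl v]
  have hiter : ∀ j : ℕ, rel z (z - j • v) ∧ z - j • v ∈ W p m := by
    intro j
    induction j with
    | zero => simpa using ⟨hs.refl z, hz⟩
    | succ j ih =>
      have h7 := hstep _ ih.2 ih.1 v hvV
      have h8 : z - j • v - v = z - (j + 1) • v := by
        rw [succ_nsmul]
        ring
      rwa [h8] at h7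
  obtain ⟨j, hj⟩ := W_gen hm hv hv0 hz
  have h9 := (hiter j).1
  rw [← hj, sub_self] at h9
  exact hz0 (hs.zero (hs.symm _ _ h9))

/-- The main combinatorial theorem. -/
theorem core (hs : Sys rel) (hm : 2 ≤ m) (hn : NoSub rel) {i j : H p m} (hi : i ≠ 0) (hj : j ≠ 0) : rel i j := by
  classical
  have hp := (Fact.out : p.Prime)
  have hm1 : 1 ≤ m := by omega
  -- the subgroup is not saturated
  have hW : ¬ Sat rel (W p m : Set (H p m)) := by
    intro h
    rcases hn _ h with h1 | h1
    · have h2 := card_W (p := p) (m := m) hm1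
      rw [h1] at h2
      simp only [Nat.card_unique] at h2
      exact hp.one_lt.ne h2
    · have h2 := card_W (p := p) (m := m) hm1
      rw [h1, Nat.card_congr (AddSubgroup.topEquiv).toEquiv, Nat.card_zmod] at h2
      have h3 : p ^ 2 ≤ p ^ m := Nat.pow_le_pow_right hp.pos hm
      nlinarith [hp.two_le]
  unfold Sat at hW
  push Not at hW
  obtain ⟨z, k, hzk, hzW, hkW⟩ := hW
  have hzW' : z ∈ W p m := hzW
  have hkW' : k ∉ W p m := hkW
  have hz0 : z ≠ 0 := by
    rintro rfl
    apply hkW'
    rw [hs.zero hzk]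
    exact (W p m).zero_mem
  -- the whole subgroup minus zero lies in the class
  have hall : ∀ v ∈ W p m, v ≠ 0 → rel z v := by
    intro v hv hv0
    have := key_neg hs hm1 hn hzW' hz0 hkW' hzk ((W p m).neg_mem hv) (by simpa using hv0)
    simpa using this
  have hnegz : rel z (-z) := hall _ ((W p m).neg_mem hzW') (by simpa using hz0)
  have hnegS : ∀ u, rel z u → rel z (-u) := by
    intro u hu
    exact hs.trans _ _ _ hnegz (hs.neg hu)
  -- the class together with zero is a subgroup
  let N0 : Set (H p m) := {u | u = 0 ∨ rel z u}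
  have hN0 : Sat rel N0 := by
    rintro a b h (ha | ha)
    · subst ha
      exact Or.inl (hs.zero h)
    · exact Or.inr (hs.trans _ _ _ ha h)
  have hWN : ∀ w ∈ W p m, w ∈ N0 := by
    intro w hw
    by_cases h0 : w = 0
    · exact Or.inl h0
    · exact Or.inr (hall w hw h0)
  have hnegN : ∀ u ∈ N0, -u ∈ N0 := by
    rintro u (hu | hu)
    · subst hu
      exact Or.inl (by simp)
    · exact Or.inr (hnegS u hu)
  -- `z - u ∈ N0`
  have hzsub : ∀ u ∈ N0, z - u ∈ N0 := by
    intro u hu
    by_cases huW : u ∈ W p m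
    · exact hWN _ ((W p m).sub_mem hzW' huW)
    · have h1 := hnegN u hu
      have h2 : -u ≠ 0 := by
        intro h3
        apply huW
        have : u = 0 := by simpa using h3
        rw [this]
        exact (W p m).zero_mem
      have h3 : -u ∉ W p m := by
        intro h4
        apply huW
        simpa using (W p m).neg_mem h4
      have h4 : rel z (-u) := h1.resolve_left h2
      have h5 := sat_inv hs hm1 hn (sat_cls hs z) (show -u ∈ cls rel z from h4) h3 hzW'
      refine Or.inr ?_
      have h6 : -u + z = z - u := by ring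
      rw [h6] at h5
      exact h5
  let Nf : Finset (H p m) := Finset.univ.filter (fun u => u ∈ N0)
  have hNf : ∀ u, u ∈ Nf ↔ u ∈ N0 := by
    intro u
    simp [Nf]
  have hcz : cnt N0 N0 z = Nf.card := by
    unfold cnt
    congr 1
    ext u
    simp only [Finset.mem_filter, Finset.mem_univ, true_and, Nf]
    exact ⟨fun h => h.1, fun h => ⟨h, hzsub u h⟩⟩
  have hsubg : ∀ a ∈ N0, ∀ b ∈ N0, a - b ∈ N0 := by
    intro a ha b hb
    rcases ha with ha | ha
    · subst ha
      have := hnegN b hb
      simpa using this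
    · have h1 : cnt N0 N0 a = Nf.card := by
        rw [← hcz]
        exact cnt_eq hs hN0 hN0 (hs.symm _ _ ha)
      have h2 : (Finset.univ.filter (fun u => u ∈ N0 ∧ a - u ∈ N0)) = Nf := by
        apply Finset.eq_of_subset_of_card_le
        · intro u hu
          simp only [Finset.mem_filter, Finset.mem_univ, true_and, Nf] at hu ⊢
          exact hu.1
        · rw [cnt_def] at h1
          exact h1.ge
      have h3 : b ∈ Nf := (hNf b).mpr hb
      rw [← h2] at h3
      simp only [Finset.mem_filter, Finset.mem_univ, true_and] at h3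
      exact h3.2
  have h0N : (0 : H p m) ∈ N0 := Or.inl rfl
  let D : AddSubgroup (H p m) :=
    { carrier := N0
      zero_mem' := h0N
      add_mem' := by
        intro a b ha hb
        have := hsubg a ha (-b) (hnegN b hb)
        simpa using this
      neg_mem' := by
        intro a ha
        exact hnegN a ha }
  have hD : D = ⊤ := by
    rcases hn D hN0 with h | h
    · exfalso
      have : z ∈ D := Or.inr (hs.refl z)
      rw [h, AddSubgroup.mem_bot] at this
      exact hz0 this
    · exact h
  have hmemD : ∀ u : H p m, u ≠ 0 → rel z u := by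
    intro u hu
    have : u ∈ D := by
      rw [hD]
      exact AddSubgroup.mem_top u
    exact (show u ∈ N0 from this).resolve_left hu
  exact hs.trans _ _ _ (hs.symm _ _ (hmemD i hi)) (hmemD j hj)

end Cfsg.Agent.Lib.CycleDeg
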