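import Cfsg.Agent.Lib.CycleDeg.Core

/-!
# Groups of prime power degree containing a full cycle
-/

set_option autoImplicit false
set_option linter.unusedSectionVars false
set_option linter.unusedVariables false

namespace Cfsg.Agent.Lib.CycleDeg

open scoped Pointwise

universe u

variable {Ω : Type u} [Fintype Ω] [DecidableEq Ω] {p m : ℕ} [Fact p.Prime]

section Enum

variable (c : Equiv.Perm Ω) (ω₀ : Ω)

/-- The enumeration of the points along the cycle. -/
def en (i : H p m) : Ω := (c ^ (ZMod.val i)) ω₀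

variable {c ω₀}

lemma en_zero : en (p := p) (m := m) c ω₀ 0 = ω₀ := by
  unfold en
  rw [ZMod.val_zero, pow_zero]
  rfl

lemma pow_en (hc : orderOf c = p ^ m) (a i : H p m) : (c ^ (ZMod.val a)) (en c ω₀ i) = en c ω₀ (a + i) := by
  have key : ∀ n : ℕ, c ^ (n % p ^ m) = c ^ n := by
    intro n
    rw [← hc]
    exact pow_mod_orderOf c n
  unfold en
  rw [← Equiv.Perm.mul_apply, ← pow_add, ZMod.val_add, key]

lemma en_add_of_pow (hc : orderOf c = p ^ m) (n : ℕ) (i : H p m) :
    (c ^ n) (en c ω₀ i) = en c ω₀ ((n : H p m) + i) := by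
  have key : ∀ n : ℕ, c ^ (n % p ^ m) = c ^ n := by
    intro n
    rw [← hc]
    exact pow_mod_orderOf c n
  have h1 : c ^ n = c ^ (ZMod.val ((n : ℕ) : H p m)) := by
    rw [ZMod.val_natCast, key]
  rw [h1, pow_en hc]

/-- The enumeration is injective when the `p ^ (m-1)`-st power moves the base point. -/
lemma en_injective (hm : 1 ≤ m) (hc : orderOf c = p ^ m) (hω : (c ^ (p ^ (m - 1))) ω₀ ≠ ω₀) :
    Function.Injective (en (p := p) (m := m) c ω₀) := by
  have hp := (Fact.out : p.Prime)
  -- a power fixing the base point is trivial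
  have hkey : ∀ d : ℕ, 0 < d → d < p ^ m → (c ^ d) ω₀ ≠ ω₀ := by
    intro d hd0 hdm hfix
    obtain ⟨a, u, hu, rfl⟩ := Nat.exists_eq_pow_mul_and_not_dvd hd0.ne' p hp.ne_one
    have ha : a < m := by
      by_contra hcon
      push Not at hcon
      have h1 : p ^ m ≤ p ^ a := Nat.pow_le_pow_right hp.pos hcon
      have h2 : 0 < u := Nat.pos_of_ne_zero (by rintro rfl; simp at hu)
      nlinarith
    set y := c ^ (p ^ (m - 1)) with hy
    have hy1 : y ^ p = 1 := by
      rw [hy, ← pow_mul, ← pow_succ, Nat.sub_add_cancel hm, ← hc, pow_orderOf_eq_one]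
    have hfix2 : ∀ n : ℕ, ((c ^ (p ^ a * u)) ^ n) ω₀ = ω₀ := by
      intro n
      induction n with
      | zero => simp
      | succ n ih =>
        rw [pow_succ, Equiv.Perm.mul_apply, hfix, ih]
    have hfix3 : (y ^ u) ω₀ = ω₀ := by
      have h1 : y ^ u = (c ^ (p ^ a * u)) ^ (p ^ (m - 1 - a)) := by
        rw [hy, ← pow_mul, ← pow_mul]
        congr 1
        have h2 : p ^ (m - 1) = p ^ a * p ^ (m - 1 - a) := by
          rw [← pow_add]
          congr 1
          omega
        rw [h2]
        ring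
      rw [h1]
      exact hfix2 _
    have hcop : Nat.Coprime u p := ((Nat.Prime.coprime_iff_not_dvd hp).mpr hu).symm
    obtain ⟨s, -, hs⟩ := Nat.exists_mul_mod_eq_one_of_coprime hcop hp.one_lt
    have hfix4 : (y ^ (u * s)) ω₀ = ω₀ := by
      rw [pow_mul]
      have : ∀ n : ℕ, ((y ^ u) ^ n) ω₀ = ω₀ := by
        intro n
        induction n with
        | zero => simp
        | succ n ih =>
          rw [pow_succ, Equiv.Perm.mul_apply, hfix3, ih]
      exact this s
    have hfix5 : y ^ (u * s) = y := by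
      have hord : orderOf y ∣ p := orderOf_dvd_of_pow_eq_one hy1
      calc y ^ (u * s) = y ^ ((u * s) % p + p * ((u * s) / p)) := by rw [Nat.mod_add_div]
        _ = y ^ ((u * s) % p) * (y ^ p) ^ ((u * s) / p) := by rw [pow_add, pow_mul]
        _ = y := by rw [hs, hy1, one_pow, mul_one, pow_one]
    rw [hfix5] at hfix4
    exact hω hfix4
  intro i j hij
  unfold en at hij
  by_contra hne
  have hval : ZMod.val i ≠ ZMod.val j := fun h => hne (ZMod.val_injective _ h)
  have hlti := ZMod.val_lt i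
  have hltj := ZMod.val_lt j
  rcases lt_or_gt_of_ne hval with h | h
  · apply hkey (ZMod.val j - ZMod.val i) (by omega) (by omega)
    have h1 : ZMod.val j = ZMod.val i + (ZMod.val j - ZMod.val i) := by omega
    rw [h1, pow_add, Equiv.Perm.mul_apply] at hij
    have := (c ^ ZMod.val i).injective hij
    exact this.symm
  · apply hkey (ZMod.val i - ZMod.val j) (by omega) (by omega)
    have h1 : ZMod.val i = ZMod.val j + (ZMod.val i - ZMod.val j) := by omega
    rw [h1, pow_add, Equiv.Perm.mul_apply] at hij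
    exact (c ^ ZMod.val j).injective hij

end Enum

/-- Every non-trivial subgroup contains the subgroup of order `p`. -/
lemma W_le (hm : 1 ≤ m) {D : AddSubgroup (H p m)} (hD : D ≠ ⊥) : W p m ≤ D := by
  have hp := (Fact.out : p.Prime)
  obtain ⟨⟨d, hd⟩, hd0'⟩ := (AddSubgroup.ne_bot_iff_exists_ne_zero (H := D)).mp hD
  have hd0 : d ≠ 0 := fun h => hd0' (Subtype.ext h)
  have hex : ∃ t : ℕ, p ^ t • d = 0 := by
    refine ⟨m, ?_⟩
    rw [nsmul_eq_mul, natCast_pow_eq_zero, zero_mul]
  classical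
  let t := Nat.find hex
  have ht : p ^ t • d = 0 := Nat.find_spec hex
  have ht0 : t ≠ 0 := by
    intro h0
    rw [h0, pow_zero, one_smul] at ht
    exact hd0 ht
  have hmin := Nat.find_min hex (m := t - 1) (by omega)
  have hv : p ^ (t - 1) • d ∈ W p m := by
    rw [mem_W_iff hm, ← nsmul_eq_mul, smul_smul, ← pow_succ', Nat.sub_add_cancel (by omega)]
    exact ht
  have hvD : p ^ (t - 1) • d ∈ D := D.nsmul_mem hd _
  intro w hw
  obtain ⟨j, rfl⟩ := W_gen hm hv hmin hw
  exact D.nsmul_mem hvD _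

/-- The main theorem on groups of prime power degree containing a full cycle. -/
theorem main (hm : 2 ≤ m) (hΩ : Fintype.card Ω = p ^ m) (G : Subgroup (Equiv.Perm Ω))
    (htr : MulAction.IsPretransitive G Ω) (h2 : ¬ MulAction.IsMultiplyPretransitive G Ω 2) (g : G)
    (hg : orderOf g = p ^ m) : ¬ MulAction.IsPreprimitive G Ω ∧
      ¬ MulAction.IsPretransitive (Subgroup.normalClosure ({g ^ (p ^ (m - 1))} : Set G)) Ω := by
  classical
  have hp := (Fact.out : p.Prime)
  have hm1 : 1 ≤ m := by omega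
  set c : Equiv.Perm Ω := (g : Equiv.Perm Ω) with hcdef
  have hc : orderOf c = p ^ m := by
    rw [← hg]
    exact Subgroup.orderOf_coe g
  have hcG : ∀ n : ℕ, c ^ n ∈ G := fun n => G.pow_mem g.2 n
  obtain ⟨ω₀, hω⟩ : ∃ ω₀ : Ω, (c ^ (p ^ (m - 1))) ω₀ ≠ ω₀ := by
    by_contra hcon
    push Not at hcon
    have h1 : c ^ (p ^ (m - 1)) = 1 := Equiv.ext hcon
    have h3 := orderOf_dvd_of_pow_eq_one h1
    rw [hc] at h3
    have h4 := (Nat.pow_dvd_pow_iff_le_right hp.one_lt).mp h3
    omega
  have hinj := en_injective (p := p) (m := m) hm1 hc hω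
  have hbij : Function.Bijective (en (p := p) (m := m) c ω₀) := by
    rw [Fintype.bijective_iff_injective_and_card]
    refine ⟨hinj, ?_⟩
    rw [hΩ, ZMod.card]
  let e : H p m ≃ Ω := Equiv.ofBijective _ hbij
  have he : ∀ i, e i = en c ω₀ i := fun _ => rfl
  have h0 : en (p := p) (m := m) c ω₀ 0 = ω₀ := en_zero
  have hpow : ∀ a i : H p m, (c ^ (ZMod.val a)) (en c ω₀ i) = en c ω₀ (a + i) := pow_en hc
  let rel : H p m → H p m → Prop := fun i j => ∃ t ∈ G, t ω₀ = ω₀ ∧ t (en c ω₀ i) = en c ω₀ j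
  have hsys : Sys rel := by
    refine ⟨?_, ?_, ?_, ?_⟩
    · exact fun i => ⟨1, G.one_mem, rfl, rfl⟩
    · rintro i j ⟨t, ht, h1, h3⟩
      refine ⟨t⁻¹, G.inv_mem ht, ?_, ?_⟩
      · rw [Equiv.Perm.inv_eq_iff_eq]
        exact h1.symm
      · rw [Equiv.Perm.inv_eq_iff_eq]
        exact h3.symm
    · rintro i j k ⟨t, ht, h1, h3⟩ ⟨s, hs, h4, h5⟩
      refine ⟨s * t, G.mul_mem hs ht, ?_, ?_⟩
      · rw [Equiv.Perm.mul_apply, h1, h4]
      · rw [Equiv.Perm.mul_apply, h3, h5]
    · rintro k k' ⟨t, ht, h1, h3⟩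
      let σ : Equiv.Perm (H p m) := e.trans (t.trans e.symm)
      have hσ : ∀ i, en c ω₀ (σ i) = t (en c ω₀ i) := by
        intro i
        show e (e.symm (t (e i))) = _
        rw [Equiv.apply_symm_apply]
        rfl
      refine ⟨σ, ?_, ?_, ?_⟩
      · apply hinj
        rw [hσ, h3]
      · apply hinj
        rw [hσ, h0, h1]
      · intro i l
        refine ⟨c ^ (ZMod.val (- σ i)) * t * c ^ (ZMod.val i),
          G.mul_mem (G.mul_mem (hcG _) ht) (hcG _), ?_, ?_⟩
        · show (c ^ (ZMod.val (- σ i))) (t ((c ^ (ZMod.val i)) ω₀)) = ω₀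
          have h5 : (c ^ (ZMod.val i)) ω₀ = en c ω₀ i := rfl
          rw [h5, ← hσ, hpow, neg_add_cancel, h0]
        · show (c ^ (ZMod.val (- σ i))) (t ((c ^ (ZMod.val i)) (en c ω₀ (l - i)))) = _
          rw [hpow, add_sub_cancel, ← hσ, hpow]
          congr 1
          ring
  by_cases hn : NoSub rel
  · exfalso
    apply h2
    rw [MulAction.is_two_pretransitive_iff]
    intro a b x y hab hxy
    obtain ⟨a', rfl⟩ := e.surjective a
    obtain ⟨b', rfl⟩ := e.surjective b
    obtain ⟨x', rfl⟩ := e.surjective x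
    obtain ⟨y', rfl⟩ := e.surjective y
    have hi : b' - a' ≠ 0 := by
      intro h
      apply hab
      rw [sub_eq_zero.mp h]
    have hj : y' - x' ≠ 0 := by
      intro h
      apply hxy
      rw [sub_eq_zero.mp h]
    obtain ⟨t, ht, h1, h3⟩ := core hsys hm hn hi hj
    refine ⟨⟨c ^ (ZMod.val x') * t * c ^ (ZMod.val (-a')), G.mul_mem (G.mul_mem (hcG _) ht) (hcG _)⟩, ?_, ?_⟩
    · show (c ^ (ZMod.val x')) (t ((c ^ (ZMod.val (-a'))) (en c ω₀ a'))) = en c ω₀ x'
      rw [hpow, neg_add_cancel, h0, h1]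
      have h5 : (c ^ (ZMod.val x')) ω₀ = en c ω₀ x' := rfl
      exact h5
    · show (c ^ (ZMod.val x')) (t ((c ^ (ZMod.val (-a'))) (en c ω₀ b'))) = en c ω₀ y'
      have h6 : -a' + b' = b' - a' := by ring
      rw [hpow, h6, h3, hpow]
      congr 1
      ring
  · -- a block
    unfold NoSub at hn
    push Not at hn
    obtain ⟨D, hDs, hD1, hD2⟩ := hn
    let B : Set Ω := en c ω₀ '' (D : Set (H p m))
    have hmemB : ∀ i, en c ω₀ i ∈ B ↔ i ∈ D := by
      intro i
      constructor
      · rintro ⟨j, hj, h1⟩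
        rw [← hinj h1]
        exact hj
      · intro h
        exact ⟨i, h, rfl⟩
    have hω₀B : ω₀ ∈ B := by
      rw [← h0, hmemB]
      exact D.zero_mem
    -- an element moving a point of the block into the block preserves it
    have hkey : ∀ h ∈ G, ∀ a ∈ D, ∀ b ∈ D, h (en c ω₀ b) = en c ω₀ a → ∀ d ∈ D, h (en c ω₀ d) ∈ B := by
      intro h hh a ha b hb hab d hd
      obtain ⟨d', hd'⟩ := e.surjective (h (en c ω₀ d))
      have hd'' : en c ω₀ d' = h (en c ω₀ d) := hd'
      have hrel : rel (d - b) (-a + d') := by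
        refine ⟨c ^ (ZMod.val (-a)) * h * c ^ (ZMod.val b), G.mul_mem (G.mul_mem (hcG _) hh) (hcG _), ?_, ?_⟩
        · show (c ^ (ZMod.val (-a))) (h ((c ^ (ZMod.val b)) ω₀)) = ω₀
          have h5 : (c ^ (ZMod.val b)) ω₀ = en c ω₀ b := rfl
          rw [h5, hab, hpow, neg_add_cancel, h0]
        · show (c ^ (ZMod.val (-a))) (h ((c ^ (ZMod.val b)) (en c ω₀ (d - b)))) = _
          rw [hpow, add_sub_cancel, ← hd'', hpow]
      have h6 : -a + d' ∈ D := hDs _ _ hrel (D.sub_mem hd hb)
      rw [← hd'', hmemB]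
      have := D.add_mem ha h6
      simpa using this
    have hblock : MulAction.IsBlock G B := by
      rw [MulAction.isBlock_iff_smul_eq_of_nonempty]
      rintro ⟨h, hh⟩ ⟨x, hx1, hx2⟩
      obtain ⟨y, hy, rfl⟩ := hx1
      obtain ⟨b, hb, rfl⟩ := hy
      obtain ⟨a, ha, hab⟩ := hx2
      have hab' : h (en c ω₀ b) = en c ω₀ a := hab.symm
      have hba' : h⁻¹ (en c ω₀ a) = en c ω₀ b := by
        rw [Equiv.Perm.inv_eq_iff_eq]
        exact hab'.symm
      apply Set.Subset.antisymm
      · rintro _ ⟨_, ⟨d, hd, rfl⟩, rfl⟩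
        exact hkey h hh a ha b hb hab' d hd
      · rintro _ ⟨d, hd, rfl⟩
        have h7 := hkey h⁻¹ (G.inv_mem hh) b hb a ha hba' d hd
        refine ⟨h⁻¹ (en c ω₀ d), h7, ?_⟩
        show h (h⁻¹ (en c ω₀ d)) = _
        simp
    have hWD : W p m ≤ D := W_le hm1 hD1
    obtain ⟨x₀, hx₀⟩ : ∃ x₀, x₀ ∉ D := by
      by_contra hcon
      push Not at hcon
      exact hD2 (top_le_iff.mp fun x _ => hcon x)
    have hx₀B : e x₀ ∉ B := fun h => hx₀ ((hmemB x₀).mp h)
    constructor
    · intro hprim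
      rcases hprim.isTrivialBlock_of_isBlock hblock with h1 | h1
      · obtain ⟨d, hd, hd0⟩ : ∃ d ∈ D, d ≠ 0 := by
          by_contra hcon
          push Not at hcon
          apply hD1
          rw [eq_bot_iff]
          intro x hx
          rw [AddSubgroup.mem_bot]
          exact hcon x hx
        have h3 := h1 ((hmemB d).mpr hd) ((hmemB 0).mpr D.zero_mem)
        exact hd0 (hinj h3)
      · exact hx₀B (by rw [h1]; exact Set.mem_univ _)
    · intro htrans
      -- the kernel of the action on the blocks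
      let Q : Subgroup G :=
        { carrier := {h | ∀ u : G, h • (u • B) = u • B}
          one_mem' := fun u => one_smul _ _
          mul_mem' := by
            intro a b ha hb u
            rw [mul_smul, hb u, ha u]
          inv_mem' := by
            intro a ha u
            have := ha u
            nth_rewrite 1 [← this]
            rw [inv_smul_smul] }
      have hQn : Q.Normal := by
        refine ⟨fun n hn a u => ?_⟩
        have h3 := hn (a⁻¹ * u)
        rw [mul_smul] at h3
        rw [mul_smul, mul_smul, h3, smul_inv_smul]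
      -- the special element lies in the kernel
      have hzQ : g ^ (p ^ (m - 1)) ∈ Q := by
        intro u
        obtain ⟨a', ha'⟩ := e.surjective (u • ω₀)
        have ha'' : en c ω₀ a' = u • ω₀ := ha'
        have hu : u • B = g ^ (ZMod.val a') • B := by
          apply hblock.smul_eq_smul_of_nonempty
          refine ⟨u • ω₀, ⟨ω₀, hω₀B, rfl⟩, ⟨ω₀, hω₀B, ?_⟩⟩
          show (c ^ (ZMod.val a')) ω₀ = _
          exact ha''
        have hz : g ^ (p ^ (m - 1)) • B = B := by
          have h3 := (MulAction.isBlock_iff_smul_eq_of_nonempty.mp hblock) (g := g ^ (p ^ (m - 1)))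
          apply h3
          refine ⟨(g ^ (p ^ (m - 1))) • ω₀, ⟨ω₀, hω₀B, rfl⟩, ?_⟩
          have h4 : (g ^ (p ^ (m - 1))) • ω₀ = (c ^ (p ^ (m - 1))) (en (p := p) (m := m) c ω₀ 0) := by
            rw [h0]
            rfl
          rw [h4, en_add_of_pow hc, hmemB, add_zero]
          apply hWD
          exact AddSubgroup.mem_zmultiples _
        rw [hu, ← mul_smul, ← pow_add, add_comm, pow_add, mul_smul, hz]
      have hle : Subgroup.normalClosure ({g ^ (p ^ (m - 1))} : Set G) ≤ Q := by
        apply Subgroup.normalClosure_le_normal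
        rintro _ rfl
        exact hzQ
      obtain ⟨n, hn⟩ := htrans.exists_smul_eq ω₀ (e x₀)
      have hnQ := hle n.2 1
      rw [one_smul] at hnQ
      apply hx₀B
      rw [← hn]
      have h5 : (n : G) • ω₀ ∈ (n : G) • B := ⟨ω₀, hω₀B, rfl⟩
      rw [hnQ] at h5
      exact h5

end Cfsg.Agent.Lib.CycleDeg
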